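import Cfsg.Agent.Lib.Helper19.Hed.Main
import Cfsg.Agent.Lib.Helper19.TC2R

/-! Generated file: certificates for the order of a presented group. -/

set_option autoImplicit false
set_option maxRecDepth 1000000

namespace Cfsg.Agent.Lib.Helper19.OrdHe.CW

open Cfsg.Agent.Lib.Helper19.TCS (evn evn_rot evn_rev evn_pair AllS forall_of_allS lift_rels mk_eq_lift cox_swap shapeI prod_rep index_of_equiv orbit_ncard orbit_image ncard_interval fix_of_closure RC)
open Cfsg.Agent.Lib.Helper19.TC2
open Cfsg.Spor Cfsg.Agent.Lib.Helper19.PresHe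
open Cfsg.Agent.Lib.Helper19.Hed


def cn (i : ℕ) : ℕ := if i < 1 then 0 else if i < 106 then 1 else if i < 826 then 2 else if i < 1666 then 3 else if i < 2506 then 4 else if i < 3850 then 5 else 6

theorem cn_lt (i : ℕ) : cn i < 7 := by
  unfold cn
  split_ifs <;> omega

def col (i : Fin cB.N) : Fin 7 := ⟨cn i.1, cn_lt i.1⟩

def mm : Fin 7 → ℕ := ![1, 105, 720, 840, 840, 1344, 4480]

def base : Fin 7 → Fin cB.N := ![⟨0, by decide⟩, ⟨1, by decide⟩, ⟨106, by decide⟩, ⟨826, by decide⟩, ⟨1666, by decide⟩, ⟨2506, by decide⟩, ⟨3850, by decide⟩]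

theorem hb : ∀ i : Fin cB.N, ∃ h ∈ HH, ψ h (base (col i)) = i := by
  intro i
  have hi : i.1 < 8330 := i.2
  rcases Nat.lt_or_ge i.1 1 with h0 | h0
  · have e : col i = ⟨0, by decide⟩ := Fin.ext (by show cn i.1 = 0; unfold cn; split_ifs <;> omega)
    rw [e]
    exact ⟨1, HH.one_mem, by rw [map_one]; apply Fin.ext; show 0 = i.1; omega⟩
  rcases Nat.lt_or_ge i.1 106 with h1 | h1
  · have e : col i = ⟨1, by decide⟩ := Fin.ext (by show cn i.1 = 1; unfold cn; split_ifs <;> omega)
    rw [e]
    have hm : i ∈ {i : Fin cB.N | 1 ≤ i.1 ∧ i.1 < 106} := ⟨by omega, by omega⟩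
    rw [← orb_0] at hm
    exact hm
  rcases Nat.lt_or_ge i.1 826 with h2 | h2
  · have e : col i = ⟨2, by decide⟩ := Fin.ext (by show cn i.1 = 2; unfold cn; split_ifs <;> omega)
    rw [e]
    have hm : i ∈ {i : Fin cB.N | 106 ≤ i.1 ∧ i.1 < 826} := ⟨by omega, by omega⟩
    rw [← orb_1] at hm
    exact hm
  rcases Nat.lt_or_ge i.1 1666 with h3 | h3
  · have e : col i = ⟨3, by decide⟩ := Fin.ext (by show cn i.1 = 3; unfold cn; split_ifs <;> omega)
    rw [e]
    have hm : i ∈ {i : Fin cB.N | 826 ≤ i.1 ∧ i.1 < 1666} := ⟨by omega, by omega⟩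
    rw [← orb_2] at hm
    exact hm
  rcases Nat.lt_or_ge i.1 2506 with h4 | h4
  · have e : col i = ⟨4, by decide⟩ := Fin.ext (by show cn i.1 = 4; unfold cn; split_ifs <;> omega)
    rw [e]
    have hm : i ∈ {i : Fin cB.N | 1666 ≤ i.1 ∧ i.1 < 2506} := ⟨by omega, by omega⟩
    rw [← orb_3] at hm
    exact hm
  rcases Nat.lt_or_ge i.1 3850 with h5 | h5
  · have e : col i = ⟨5, by decide⟩ := Fin.ext (by show cn i.1 = 5; unfold cn; split_ifs <;> omega)
    rw [e]
    have hm : i ∈ {i : Fin cB.N | 2506 ≤ i.1 ∧ i.1 < 3850} := ⟨by omega, by omega⟩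
    rw [← orb_4] at hm
    exact hm
  have e : col i = ⟨6, by decide⟩ := Fin.ext (by show cn i.1 = 6; unfold cn; split_ifs <;> omega)
  rw [e]
  have hm : i ∈ {i : Fin cB.N | 3850 ≤ i.1 ∧ i.1 < 8330} := ⟨by omega, by omega⟩
  rw [← orb_5] at hm
  exact hm

theorem hm : ∀ c, (Finset.univ.filter (fun i => col i = c)).card = mm c := by
  rintro ⟨c, hc⟩
  interval_cases c
  · exact card_col (lo := 0) (hi := 1) (by decide) (fun i => by
      have hi : i.1 < 8330 := i.2
      rw [Fin.ext_iff]
      show cn i.1 = 0 ↔ _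
      unfold cn
      constructor
      · intro h
        split_ifs at h <;> omega
      · intro h
        split_ifs <;> omega)
  · exact card_col (lo := 1) (hi := 106) (by decide) (fun i => by
      have hi : i.1 < 8330 := i.2
      rw [Fin.ext_iff]
      show cn i.1 = 1 ↔ _
      unfold cn
      constructor
      · intro h
        split_ifs at h <;> omega
      · intro h
        split_ifs <;> omega)
  · exact card_col (lo := 106) (hi := 826) (by decide) (fun i => by
      have hi : i.1 < 8330 := i.2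
      rw [Fin.ext_iff]
      show cn i.1 = 2 ↔ _
      unfold cn
      constructor
      · intro h
        split_ifs at h <;> omega
      · intro h
        split_ifs <;> omega)
  · exact card_col (lo := 826) (hi := 1666) (by decide) (fun i => by
      have hi : i.1 < 8330 := i.2
      rw [Fin.ext_iff]
      show cn i.1 = 3 ↔ _
      unfold cn
      constructor
      · intro h
        split_ifs at h <;> omega
      · intro h
        split_ifs <;> omega)
  · exact card_col (lo := 1666) (hi := 2506) (by decide) (fun i => by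
      have hi : i.1 < 8330 := i.2
      rw [Fin.ext_iff]
      show cn i.1 = 4 ↔ _
      unfold cn
      constructor
      · intro h
        split_ifs at h <;> omega
      · intro h
        split_ifs <;> omega)
  · exact card_col (lo := 2506) (hi := 3850) (by decide) (fun i => by
      have hi : i.1 < 8330 := i.2
      rw [Fin.ext_iff]
      show cn i.1 = 5 ↔ _
      unfold cn
      constructor
      · intro h
        split_ifs at h <;> omega
      · intro h
        split_ifs <;> omega)
  · exact card_col (lo := 3850) (hi := 8330) (by decide) (fun i => by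
      have hi : i.1 < 8330 := i.2
      rw [Fin.ext_iff]
      show cn i.1 = 6 ↔ _
      unfold cn
      constructor
      · intro h
        split_ifs at h <;> omega
      · intro h
        split_ifs <;> omega)

theorem harith0 : ∀ S : Finset (Fin 7), col z ∈ S → (∑ c ∈ S, mm c) ∣ cB.N →
    S = {col z} ∨ S = Finset.univ ∨ S = ({0, 1, 2, 3} : Finset (Fin 7)) ∨ S = ({0, 1, 2, 4} : Finset (Fin 7)) := by decide +kernel

theorem harith : ∀ S : Finset (Fin 7), col z ∈ S → (∑ c ∈ S, mm c) ∣ cB.N →
    S = {col z} ∨ S = Finset.univ ∨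
      ∃ (g : Cfsg.Spor.He) (x : Fin cB.N), col (ψ g z) ∈ S ∧ col x ∈ S ∧ col (ψ g x) ∉ S := by
  intro S h1 h2
  rcases harith0 S h1 h2 with h | h | h | h
  · exact Or.inl h
  · exact Or.inr (Or.inl h)
  · subst h
    have e1 : ψ (evn el [1]) z = ⟨106, by decide⟩ := Fin.ext (by
      rw [psi_evn (L := 7) ψ hψ [1] (by decide)]
      exact (by decide +kernel : app cB [1] 0 = 106))
    have e2 : ψ (evn el [1]) ⟨8, by decide⟩ = ⟨2473, by decide⟩ := Fin.ext (by
      rw [psi_evn (L := 7) ψ hψ [1] (by decide)]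
      exact (by decide +kernel : app cB [1] 8 = 2473))
    refine Or.inr (Or.inr ⟨evn el [1], ⟨8, by decide⟩, ?_, ?_, ?_⟩)
    · rw [e1]; decide +kernel
    · decide +kernel
    · rw [e2]; decide +kernel
  · subst h
    have e1 : ψ (evn el [1]) z = ⟨106, by decide⟩ := Fin.ext (by
      rw [psi_evn (L := 7) ψ hψ [1] (by decide)]
      exact (by decide +kernel : app cB [1] 0 = 106))
    have e2 : ψ (evn el [1]) ⟨4, by decide⟩ = ⟨1357, by decide⟩ := Fin.ext (by
      rw [psi_evn (L := 7) ψ hψ [1] (by decide)]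
      exact (by decide +kernel : app cB [1] 4 = 1357))
    refine Or.inr (Or.inr ⟨evn el [1], ⟨4, by decide⟩, ?_, ?_, ?_⟩)
    · rw [e1]; decide +kernel
    · decide +kernel
    · rw [e2]; decide +kernel

theorem stab : ∀ x, ψ x z = z → x ∈ HH :=
  stab_mem (P := cert) (FIN := tFIN) (L := 7) ψ z rfl (fun k _ => el_sq k) hψ hcov (loop_all link_ok) hfix

theorem trans : ∀ i, ∃ x, ψ x z = i :=
  trans_pt (P := cert) (FIN := tFIN) (LAB := tLAB) (L := 7) ψ z rfl (fun k _ => el_sq k) hψ (loop_all link_ok) (loop_all lab_ok)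

theorem coatom : IsCoatom HH :=
  isCoatom_of_colours' ψ z HH hfix stab trans col mm (hcol_of_base ψ HH col base hb) hm harith rfl
    (by decide)

end Cfsg.Agent.Lib.Helper19.OrdHe.CW
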