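import Cfsg.Agent.Lib.Helper19.PresHe
import Cfsg.Agent.Lib.Helper19.TC2R

/-! Generated file: certificates for the order of a presented group. -/

set_option autoImplicit false
set_option maxRecDepth 1000000

namespace Cfsg.Agent.Lib.Helper19.OrdHe.U5

open Cfsg.Agent.Lib.Helper19.TCS (evn evn_rot evn_rev evn_pair AllS forall_of_allS lift_rels mk_eq_lift cox_swap shapeI prod_rep index_of_equiv orbit_ncard orbit_image ncard_interval fix_of_closure RC)
open Cfsg.Agent.Lib.Helper19.TC2
open Cfsg.Spor Cfsg.Agent.Lib.Helper19.PresHe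

noncomputable section

def T0 : Tb := (.leaf 0x49)
def J0 : Tb := (.leaf 0x100)
def L0 : Letter := (0, T0, J0)
def tC : Tb := (.leaf 0x0)
def tJC : Tb := (.leaf 0x0)
def tPP : Tb := (.leaf 0x8080)
def W0 : List Letter := [L0, L0]
def wtree : Tr := .leaf W0
def wsubs : List (List Letter × List Letter) := []
def cert : Par := { w := 2, mw := 3, w5 := 7, fw := 4, mf := 15, jw := 8, mj := 255, k := 6, km := 63, C := tC, JC := tJC, PP := tPP, D := 1, M := 2, R := 1, S := 2, tree := wtree, subs := wsubs, LS := [L0] }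

end

theorem al0 : al cert 0 = true := by decide +kernel

theorem cnt : cntA (al cert) 2 0 = 2 := by decide +kernel

theorem row_ok0 : loop (row cert) 0 2 = true := by decide +kernel

theorem hsel : ∀ k < cert.LS.length, (sel cert.LS k).1 = k := by decide

theorem lf0 : (∀ p ∈ W0, p ∈ cert.LS) ∧ ev (fun k => el (jm [6] k)) W0 = 1 :=
  leaf_okJ cert el [6] hsel [0, 0] [6, 6] W0 rfl (by decide) rfl (evn_pair el el_sq 6)

theorem tree_ok : cert.tree.All (fun W => (∀ p ∈ W, p ∈ cert.LS) ∧ ev (fun k => el (jm [6] k)) W = 1) :=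
  lf0

theorem subs_ok : AllS (fun XZ : List Letter × List Letter => (∀ p ∈ XZ.1, p ∈ cert.LS) ∧ (∀ p ∈ XZ.2, p ∈ cert.LS) ∧
    ev (fun k => el (jm [6] k)) XZ.1 * ev (fun k => el (jm [6] k)) XZ.2 ∈ KK el []) cert.subs :=
  trivial

theorem hyp : Hyp cert (KK el []) (fun k => el (jm [6] k)) := ⟨tree_ok, forall_of_allS subs_ok⟩

theorem hrow : ∀ a < cert.M, row cert a = true := by
  intro a ha
  have ha' : a < 2 := ha
  exact loop_spec row_ok0 a (by omega) (by omega)

theorem ub (hf : Finite (KK el [])) : Finite (KK el [6]) ∧ Nat.card (KK el [6]) ≤ 2 * Nat.card (KK el []) :=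
  ub_stepJ el [6] [] el_sq hyp al0 hrow rfl cnt hf

end Cfsg.Agent.Lib.Helper19.OrdHe.U5
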