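import Cfsg.Agent.Lib.Helper19.OrdHe.U0
import Cfsg.Agent.Lib.Helper19.OrdHe.U1
import Cfsg.Agent.Lib.Helper19.OrdHe.U2
import Cfsg.Agent.Lib.Helper19.OrdHe.U3
import Cfsg.Agent.Lib.Helper19.OrdHe.U4
import Cfsg.Agent.Lib.Helper19.OrdHe.U5
import Cfsg.Agent.Lib.Helper19.OrdHe.LW
import Cfsg.Agent.Lib.Helper19.OrdHe.CW

/-! Generated file: certificates for the order of a presented group. -/

set_option autoImplicit false
set_option maxRecDepth 1000000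

namespace Cfsg.Agent.Lib.Helper19.OrdHe

open Cfsg.Agent.Lib.Helper19.TCS (evn evn_rot evn_rev evn_pair AllS forall_of_allS lift_rels mk_eq_lift cox_swap shapeI prod_rep index_of_equiv orbit_ncard orbit_image ncard_interval fix_of_closure RC)
open Cfsg.Agent.Lib.Helper19.TC2
open Cfsg.Spor Cfsg.Agent.Lib.Helper19.PresHe
open Cfsg.Agent.Lib.Helper19


theorem fin_nil : Finite (KK el []) := by
  rw [KK_nil]
  infer_instance

theorem card_nil : Nat.card (KK el []) = 1 := by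
  rw [KK_nil]
  exact Subgroup.card_bot

theorem cardw_nil : Nat.card (KW el []) = 1 := by
  rw [KW_nil]
  exact Subgroup.card_bot

theorem ub_all : Finite (KK el [0, 1, 2, 3, 4, 5, 6]) ∧ Nat.card (KK el [0, 1, 2, 3, 4, 5, 6]) ≤ 4030387200 := by
  obtain ⟨f5, u5⟩ := U5.ub fin_nil
  obtain ⟨f4, u4⟩ := U4.ub f5
  obtain ⟨f3, u3⟩ := U3.ub f4
  obtain ⟨f2, u2⟩ := U2.ub f3
  obtain ⟨f1, u1⟩ := U1.ub f2
  obtain ⟨f0, u0⟩ := U0.ub f1
  refine ⟨f0, ?_⟩
  have := card_nil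
  omega

theorem KK_top : KK el [0, 1, 2, 3, 4, 5, 6] = ⊤ := by
  rw [eq_top_iff, ← PresentedGroup.closure_range_of]
  apply Subgroup.closure_mono
  rintro _ ⟨x, rfl⟩
  exact ⟨num x, by cases x <;> decide, by simp [el, gen_num]⟩

theorem finG : Finite Cfsg.Spor.He := by
  have h := ub_all.1
  rw [KK_top] at h
  exact Finite.of_injective (fun x : Cfsg.Spor.He => (⟨x, Subgroup.mem_top x⟩ : (⊤ : Subgroup Cfsg.Spor.He))) (fun x y h => congrArg Subtype.val h)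

theorem card_le : Nat.card Cfsg.Spor.He ≤ 4030387200 := by
  have h := ub_all.2
  rwa [KK_top, Subgroup.card_top] at h

theorem HH_eq : Hed.HH = KW el [[0], [2], [3], [4], [5], [6], [1, 0, 1], [1, 2, 3, 4, 5, 3, 2, 1, 3, 2, 3, 2, 1, 4, 3, 2, 3, 4, 5, 3, 2, 1]] := by
  rw [Hed.hH]
  exact closure_eq_KW el Hed.h1 Hed.h2

theorem chain : Nat.card Cfsg.Spor.He = 4030387200 ∧
    Nat.card (KW el [[0], [2], [3], [4], [5], [6], [1, 0, 1], [1, 2, 3, 4, 5, 3, 2, 1, 3, 2, 3, 2, 1, 4, 3, 2, 3, 4, 5, 3, 2, 1]]) ≤ 720 * Nat.card (KW el [[0], [3], [4], [5], [6], [1, 0, 1]]) ∧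
    Nat.card (KW el [[0], [3], [4], [5], [6], [1, 0, 1]]) ≤ 21 * Nat.card (KW el [[0], [5], [6], [1, 0, 1]]) ∧
    Nat.card (KW el [[0], [5], [6], [1, 0, 1]]) ≤ 4 * Nat.card (KW el [[0], [6], [1, 0, 1]]) ∧
    Nat.card (KW el [[0], [6], [1, 0, 1]]) ≤ 2 * Nat.card (KW el [[6], [1, 0, 1]]) ∧
    Nat.card (KW el [[6], [1, 0, 1]]) ≤ 2 * Nat.card (KW el [[1, 0, 1]]) ∧
    Nat.card (KW el [[1, 0, 1]]) ≤ 2 * Nat.card (KW el []) := by
  haveI := finG
  have l0 := LW.lb0.card_le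
  have l1 := LW.lb1.card_le
  have l2 := LW.lb2.card_le
  have l3 := LW.lb3.card_le
  have l4 := LW.lb4.card_le
  have l5 := LW.lb5.card_le
  have u := card_le
  have c := cardw_nil
  have i := Subgroup.card_mul_index Hed.HH
  rw [Hed.index_eq, HH_eq] at i
  refine ⟨by omega, by omega, by omega, by omega, by omega, by omega, by omega⟩

theorem card_eq : Nat.card Cfsg.Spor.He = 4030387200 := chain.1

theorem joint (x : Cfsg.Spor.He) (hW : Hed.ψ x = 1) : x = 1 := by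
  haveI := finG
  obtain ⟨_, t0, t1, t2, t3, t4, t5⟩ := chain
  have hx : x ∈ KW el [[0], [2], [3], [4], [5], [6], [1, 0, 1], [1, 2, 3, 4, 5, 3, 2, 1, 3, 2, 3, 2, 1, 4, 3, 2, 3, 4, 5, 3, 2, 1]] := by
    rw [← HH_eq]
    apply CW.stab
    rw [hW]
    rfl
  have m0 := LW.lb0.ker_le (by decide) t0 x hx hW
  have m1 := LW.lb1.ker_le (by decide) t1 x m0 hW
  have m2 := LW.lb2.ker_le (by decide) t2 x m1 hW
  have m3 := LW.lb3.ker_le (by decide) t3 x m2 hW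
  have m4 := LW.lb4.ker_le (by decide) t4 x m3 hW
  have m5 := LW.lb5.ker_le (by decide) t5 x m4 hW
  rw [KW_nil] at m5
  exact Subgroup.mem_bot.1 m5

end Cfsg.Agent.Lib.Helper19.OrdHe
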