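import Cfsg.Agent.Lib.Helper19.PresHe
import Cfsg.Agent.Lib.Helper19.TC2R

/-! Generated file: certificates for the order of a presented group. -/

set_option autoImplicit false
set_option maxRecDepth 1000000

namespace Cfsg.Agent.Lib.Helper19.OrdHe.PD

open Cfsg.Agent.Lib.Helper19.TCS (evn evn_rot evn_rev evn_pair AllS forall_of_allS lift_rels mk_eq_lift cox_swap shapeI prod_rep index_of_equiv orbit_ncard orbit_image ncard_interval fix_of_closure RC)
open Cfsg.Agent.Lib.Helper19.TC2
open Cfsg.Spor Cfsg.Agent.Lib.Helper19.PresHe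
open Cfsg.Spor.He


abbrev MM : Subgroup Cfsg.Spor.He := commutator Cfsg.Spor.He

noncomputable def elq (k : ℕ) : Cfsg.Spor.He ⧸ MM := QuotientGroup.mk' MM (el k)

theorem elq_sq (k : ℕ) : elq k * elq k = 1 := by
  unfold elq
  rw [← map_mul, el_sq, map_one]

theorem q_one {l : List ℕ} (h : evn el l = 1) : evn elq l = 1 := by
  have := evn_hom (QuotientGroup.mk' MM) el l
  rw [h, map_one] at this
  exact this.symm

theorem cq_one (x y : ℕ) : evn elq [x, y, x, y] = 1 := by
  have hc : elq x * elq y = elq y * elq x := mul_comm (G := Abelianization Cfsg.Spor.He) (elq x) (elq y)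
  simp only [evn, List.map_cons, List.map_nil, List.prod_cons, List.prod_nil, mul_one]
  rw [hc, ← mul_assoc (elq y), elq_sq, one_mul, elq_sq]

theorem KKq_top : KK elq [0, 1, 2, 3, 4, 5, 6] = ⊤ := by
  rw [eq_top_iff, ← Subgroup.map_top_of_surjective (QuotientGroup.mk' MM) (QuotientGroup.mk'_surjective MM),
    ← PresentedGroup.closure_range_of, MonoidHom.map_closure]
  apply Subgroup.closure_mono
  rintro _ ⟨_, ⟨x, rfl⟩, rfl⟩
  exact ⟨num x, by cases x <;> decide, by simp [elq, el, gen_num]⟩

end Cfsg.Agent.Lib.Helper19.OrdHe.PD
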