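import Cfsg.Agent.Lib.Helper19.PresHe
import Cfsg.Agent.Lib.Helper19.OrdHe.U0C0
import Cfsg.Agent.Lib.Helper19.OrdHe.U0C1
import Cfsg.Agent.Lib.Helper19.OrdHe.U0C2
import Cfsg.Agent.Lib.Helper19.OrdHe.U0C3
import Cfsg.Agent.Lib.Helper19.OrdHe.U0C4
import Cfsg.Agent.Lib.Helper19.OrdHe.U0C5
import Cfsg.Agent.Lib.Helper19.OrdHe.U0C6
import Cfsg.Agent.Lib.Helper19.OrdHe.U0C7
import Cfsg.Agent.Lib.Helper19.OrdHe.U0C8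
import Cfsg.Agent.Lib.Helper19.OrdHe.U0C9
import Cfsg.Agent.Lib.Helper19.OrdHe.U0C10
import Cfsg.Agent.Lib.Helper19.OrdHe.U0C11
import Cfsg.Agent.Lib.Helper19.OrdHe.U0C12

/-! Generated file: certificates for the order of a presented group. -/

set_option autoImplicit false
set_option maxRecDepth 1000000

namespace Cfsg.Agent.Lib.Helper19.OrdHe.U0

open Cfsg.Agent.Lib.Helper19.TCS (evn evn_rot evn_rev evn_pair AllS forall_of_allS lift_rels mk_eq_lift cox_swap shapeI prod_rep index_of_equiv orbit_ncard orbit_image ncard_interval fix_of_closure RC)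
open Cfsg.Agent.Lib.Helper19.TC2
open Cfsg.Spor Cfsg.Agent.Lib.Helper19.PresHe

theorem hsel : ∀ k < cert.LS.length, (sel cert.LS k).1 = k := by decide

theorem lf0 : (∀ p ∈ W0, p ∈ cert.LS) ∧ ev (fun k => el (jm [0, 1, 2, 3, 4, 5, 6] k)) W0 = 1 :=
  leaf_okJ cert el [0, 1, 2, 3, 4, 5, 6] hsel [1, 1] [1, 1] W0 rfl (by decide) rfl (evn_pair el el_sq 1)

theorem lf1 : (∀ p ∈ W1, p ∈ cert.LS) ∧ ev (fun k => el (jm [0, 1, 2, 3, 4, 5, 6] k)) W1 = 1 :=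
  leaf_okJ cert el [0, 1, 2, 3, 4, 5, 6] hsel [3, 1, 3, 1] [3, 1, 3, 1] W1 rfl (by decide) rfl (cox_one 3 1)

theorem lf2 : (∀ p ∈ W2, p ∈ cert.LS) ∧ ev (fun k => el (jm [0, 1, 2, 3, 4, 5, 6] k)) W2 = 1 :=
  leaf_okJ cert el [0, 1, 2, 3, 4, 5, 6] hsel [4, 1, 4, 1] [4, 1, 4, 1] W2 rfl (by decide) rfl (cox_one 4 1)

theorem lf3 : (∀ p ∈ W3, p ∈ cert.LS) ∧ ev (fun k => el (jm [0, 1, 2, 3, 4, 5, 6] k)) W3 = 1 :=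
  leaf_okJ cert el [0, 1, 2, 3, 4, 5, 6] hsel [5, 1, 5, 1] [5, 1, 5, 1] W3 rfl (by decide) rfl (cox_one 5 1)

theorem lf4 : (∀ p ∈ W4, p ∈ cert.LS) ∧ ev (fun k => el (jm [0, 1, 2, 3, 4, 5, 6] k)) W4 = 1 :=
  leaf_okJ cert el [0, 1, 2, 3, 4, 5, 6] hsel [6, 1, 6, 1] [6, 1, 6, 1] W4 rfl (by decide) rfl (cox_one 6 1)

theorem lf5 : (∀ p ∈ W5, p ∈ cert.LS) ∧ ev (fun k => el (jm [0, 1, 2, 3, 4, 5, 6] k)) W5 = 1 :=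
  leaf_okJ cert el [0, 1, 2, 3, 4, 5, 6] hsel [0, 0] [0, 0] W5 rfl (by decide) rfl (evn_pair el el_sq 0)

theorem lf6 : (∀ p ∈ W6, p ∈ cert.LS) ∧ ev (fun k => el (jm [0, 1, 2, 3, 4, 5, 6] k)) W6 = 1 :=
  leaf_okJ cert el [0, 1, 2, 3, 4, 5, 6] hsel [3, 0, 3, 0] [3, 0, 3, 0] W6 rfl (by decide) rfl (cox_one 3 0)

theorem lf7 : (∀ p ∈ W7, p ∈ cert.LS) ∧ ev (fun k => el (jm [0, 1, 2, 3, 4, 5, 6] k)) W7 = 1 :=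
  leaf_okJ cert el [0, 1, 2, 3, 4, 5, 6] hsel [4, 0, 4, 0] [4, 0, 4, 0] W7 rfl (by decide) rfl (cox_one 4 0)

theorem lf8 : (∀ p ∈ W8, p ∈ cert.LS) ∧ ev (fun k => el (jm [0, 1, 2, 3, 4, 5, 6] k)) W8 = 1 :=
  leaf_okJ cert el [0, 1, 2, 3, 4, 5, 6] hsel [5, 0, 5, 0] [5, 0, 5, 0] W8 rfl (by decide) rfl (cox_one 5 0)

theorem lf9 : (∀ p ∈ W9, p ∈ cert.LS) ∧ ev (fun k => el (jm [0, 1, 2, 3, 4, 5, 6] k)) W9 = 1 :=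
  leaf_okJ cert el [0, 1, 2, 3, 4, 5, 6] hsel [6, 0, 6, 0] [6, 0, 6, 0] W9 rfl (by decide) rfl (cox_one 6 0)

theorem lf10 : (∀ p ∈ W10, p ∈ cert.LS) ∧ ev (fun k => el (jm [0, 1, 2, 3, 4, 5, 6] k)) W10 = 1 :=
  leaf_okJ cert el [0, 1, 2, 3, 4, 5, 6] hsel [2, 2] [2, 2] W10 rfl (by decide) rfl (evn_pair el el_sq 2)

theorem lf11 : (∀ p ∈ W11, p ∈ cert.LS) ∧ ev (fun k => el (jm [0, 1, 2, 3, 4, 5, 6] k)) W11 = 1 :=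
  leaf_okJ cert el [0, 1, 2, 3, 4, 5, 6] hsel [4, 2, 4, 2] [4, 2, 4, 2] W11 rfl (by decide) rfl (cox_one 4 2)

theorem lf12 : (∀ p ∈ W12, p ∈ cert.LS) ∧ ev (fun k => el (jm [0, 1, 2, 3, 4, 5, 6] k)) W12 = 1 :=
  leaf_okJ cert el [0, 1, 2, 3, 4, 5, 6] hsel [5, 2, 5, 2] [5, 2, 5, 2] W12 rfl (by decide) rfl (cox_one 5 2)

theorem lf13 : (∀ p ∈ W13, p ∈ cert.LS) ∧ ev (fun k => el (jm [0, 1, 2, 3, 4, 5, 6] k)) W13 = 1 :=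
  leaf_okJ cert el [0, 1, 2, 3, 4, 5, 6] hsel [6, 2, 6, 2] [6, 2, 6, 2] W13 rfl (by decide) rfl (cox_one 6 2)

theorem lf14 : (∀ p ∈ W14, p ∈ cert.LS) ∧ ev (fun k => el (jm [0, 1, 2, 3, 4, 5, 6] k)) W14 = 1 :=
  leaf_okJ cert el [0, 1, 2, 3, 4, 5, 6] hsel [1, 2, 1, 2, 1, 2] [1, 2, 1, 2, 1, 2] W14 rfl (by decide) rfl (cox_one 1 2)

theorem lf15 : (∀ p ∈ W15, p ∈ cert.LS) ∧ ev (fun k => el (jm [0, 1, 2, 3, 4, 5, 6] k)) W15 = 1 :=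
  leaf_okJ cert el [0, 1, 2, 3, 4, 5, 6] hsel [0, 1, 0, 1, 0, 1, 0, 1] [0, 1, 0, 1, 0, 1, 0, 1] W15 rfl (by decide) rfl (cox_one 0 1)

theorem lf16 : (∀ p ∈ W16, p ∈ cert.LS) ∧ ev (fun k => el (jm [0, 1, 2, 3, 4, 5, 6] k)) W16 = 1 :=
  leaf_okJ cert el [0, 1, 2, 3, 4, 5, 6] hsel [0, 2, 0, 2] [0, 2, 0, 2] W16 rfl (by decide) rfl (cox_one 0 2)

theorem lf17 : (∀ p ∈ W17, p ∈ cert.LS) ∧ ev (fun k => el (jm [0, 1, 2, 3, 4, 5, 6] k)) W17 = 1 :=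
  leaf_okJ cert el [0, 1, 2, 3, 4, 5, 6] hsel [1, 0, 2, 1, 0, 2, 1, 0, 4, 2] [1, 0, 2, 1, 0, 2, 1, 0, 4, 2] W17 rfl (by decide) rfl (evn_rot el [4, 2] [1, 0, 2, 1, 0, 2, 1, 0] xg1_one)

theorem lf18 : (∀ p ∈ W18, p ∈ cert.LS) ∧ ev (fun k => el (jm [0, 1, 2, 3, 4, 5, 6] k)) W18 = 1 :=
  leaf_okJ cert el [0, 1, 2, 3, 4, 5, 6] hsel [2, 4, 0, 1, 2, 0, 1, 2, 0, 1] [2, 4, 0, 1, 2, 0, 1, 2, 0, 1] W18 rfl (by decide) rfl (evn_rot el [0, 1, 2, 0, 1, 2, 0, 1] [2, 4] (evn_rev el el_sq _ xg1_one))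

theorem lf19 : (∀ p ∈ W19, p ∈ cert.LS) ∧ ev (fun k => el (jm [0, 1, 2, 3, 4, 5, 6] k)) W19 = 1 :=
  leaf_okJ cert el [0, 1, 2, 3, 4, 5, 6] hsel [3, 3] [3, 3] W19 rfl (by decide) rfl (evn_pair el el_sq 3)

theorem lf20 : (∀ p ∈ W20, p ∈ cert.LS) ∧ ev (fun k => el (jm [0, 1, 2, 3, 4, 5, 6] k)) W20 = 1 :=
  leaf_okJ cert el [0, 1, 2, 3, 4, 5, 6] hsel [1, 3, 1, 3] [1, 3, 1, 3] W20 rfl (by decide) rfl (cox_one 1 3)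

theorem lf21 : (∀ p ∈ W21, p ∈ cert.LS) ∧ ev (fun k => el (jm [0, 1, 2, 3, 4, 5, 6] k)) W21 = 1 :=
  leaf_okJ cert el [0, 1, 2, 3, 4, 5, 6] hsel [0, 3, 0, 3] [0, 3, 0, 3] W21 rfl (by decide) rfl (cox_one 0 3)

theorem lf22 : (∀ p ∈ W22, p ∈ cert.LS) ∧ ev (fun k => el (jm [0, 1, 2, 3, 4, 5, 6] k)) W22 = 1 :=
  leaf_okJ cert el [0, 1, 2, 3, 4, 5, 6] hsel [4, 4] [4, 4] W22 rfl (by decide) rfl (evn_pair el el_sq 4)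

theorem lf23 : (∀ p ∈ W23, p ∈ cert.LS) ∧ ev (fun k => el (jm [0, 1, 2, 3, 4, 5, 6] k)) W23 = 1 :=
  leaf_okJ cert el [0, 1, 2, 3, 4, 5, 6] hsel [1, 4, 1, 4] [1, 4, 1, 4] W23 rfl (by decide) rfl (cox_one 1 4)

theorem lf24 : (∀ p ∈ W24, p ∈ cert.LS) ∧ ev (fun k => el (jm [0, 1, 2, 3, 4, 5, 6] k)) W24 = 1 :=
  leaf_okJ cert el [0, 1, 2, 3, 4, 5, 6] hsel [3, 4, 3, 4, 3, 4] [3, 4, 3, 4, 3, 4] W24 rfl (by decide) rfl (cox_one 3 4)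

theorem lf25 : (∀ p ∈ W25, p ∈ cert.LS) ∧ ev (fun k => el (jm [0, 1, 2, 3, 4, 5, 6] k)) W25 = 1 :=
  leaf_okJ cert el [0, 1, 2, 3, 4, 5, 6] hsel [5, 5] [5, 5] W25 rfl (by decide) rfl (evn_pair el el_sq 5)

theorem lf26 : (∀ p ∈ W26, p ∈ cert.LS) ∧ ev (fun k => el (jm [0, 1, 2, 3, 4, 5, 6] k)) W26 = 1 :=
  leaf_okJ cert el [0, 1, 2, 3, 4, 5, 6] hsel [1, 5, 1, 5] [1, 5, 1, 5] W26 rfl (by decide) rfl (cox_one 1 5)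

theorem lf27 : (∀ p ∈ W27, p ∈ cert.LS) ∧ ev (fun k => el (jm [0, 1, 2, 3, 4, 5, 6] k)) W27 = 1 :=
  leaf_okJ cert el [0, 1, 2, 3, 4, 5, 6] hsel [3, 5, 3, 5, 3, 5] [3, 5, 3, 5, 3, 5] W27 rfl (by decide) rfl (cox_one 3 5)

theorem lf28 : (∀ p ∈ W28, p ∈ cert.LS) ∧ ev (fun k => el (jm [0, 1, 2, 3, 4, 5, 6] k)) W28 = 1 :=
  leaf_okJ cert el [0, 1, 2, 3, 4, 5, 6] hsel [6, 6] [6, 6] W28 rfl (by decide) rfl (evn_pair el el_sq 6)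

theorem lf29 : (∀ p ∈ W29, p ∈ cert.LS) ∧ ev (fun k => el (jm [0, 1, 2, 3, 4, 5, 6] k)) W29 = 1 :=
  leaf_okJ cert el [0, 1, 2, 3, 4, 5, 6] hsel [1, 6, 1, 6] [1, 6, 1, 6] W29 rfl (by decide) rfl (cox_one 1 6)

theorem lf30 : (∀ p ∈ W30, p ∈ cert.LS) ∧ ev (fun k => el (jm [0, 1, 2, 3, 4, 5, 6] k)) W30 = 1 :=
  leaf_okJ cert el [0, 1, 2, 3, 4, 5, 6] hsel [3, 6, 3, 6, 3, 6] [3, 6, 3, 6, 3, 6] W30 rfl (by decide) rfl (cox_one 3 6)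

theorem lf31 : (∀ p ∈ W31, p ∈ cert.LS) ∧ ev (fun k => el (jm [0, 1, 2, 3, 4, 5, 6] k)) W31 = 1 :=
  leaf_okJ cert el [0, 1, 2, 3, 4, 5, 6] hsel [0, 4, 0, 4] [0, 4, 0, 4] W31 rfl (by decide) rfl (cox_one 0 4)

theorem lf32 : (∀ p ∈ W32, p ∈ cert.LS) ∧ ev (fun k => el (jm [0, 1, 2, 3, 4, 5, 6] k)) W32 = 1 :=
  leaf_okJ cert el [0, 1, 2, 3, 4, 5, 6] hsel [0, 5, 0, 5] [0, 5, 0, 5] W32 rfl (by decide) rfl (cox_one 0 5)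

theorem lf33 : (∀ p ∈ W33, p ∈ cert.LS) ∧ ev (fun k => el (jm [0, 1, 2, 3, 4, 5, 6] k)) W33 = 1 :=
  leaf_okJ cert el [0, 1, 2, 3, 4, 5, 6] hsel [0, 6, 0, 6] [0, 6, 0, 6] W33 rfl (by decide) rfl (cox_one 0 6)

theorem lf34 : (∀ p ∈ W34, p ∈ cert.LS) ∧ ev (fun k => el (jm [0, 1, 2, 3, 4, 5, 6] k)) W34 = 1 :=
  leaf_okJ cert el [0, 1, 2, 3, 4, 5, 6] hsel [2, 1, 2, 1, 2, 1] [2, 1, 2, 1, 2, 1] W34 rfl (by decide) rfl (cox_one 2 1)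

theorem lf35 : (∀ p ∈ W35, p ∈ cert.LS) ∧ ev (fun k => el (jm [0, 1, 2, 3, 4, 5, 6] k)) W35 = 1 :=
  leaf_okJ cert el [0, 1, 2, 3, 4, 5, 6] hsel [2, 4, 2, 4] [2, 4, 2, 4] W35 rfl (by decide) rfl (cox_one 2 4)

theorem lf36 : (∀ p ∈ W36, p ∈ cert.LS) ∧ ev (fun k => el (jm [0, 1, 2, 3, 4, 5, 6] k)) W36 = 1 :=
  leaf_okJ cert el [0, 1, 2, 3, 4, 5, 6] hsel [2, 5, 2, 5] [2, 5, 2, 5] W36 rfl (by decide) rfl (cox_one 2 5)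

theorem lf37 : (∀ p ∈ W37, p ∈ cert.LS) ∧ ev (fun k => el (jm [0, 1, 2, 3, 4, 5, 6] k)) W37 = 1 :=
  leaf_okJ cert el [0, 1, 2, 3, 4, 5, 6] hsel [2, 6, 2, 6] [2, 6, 2, 6] W37 rfl (by decide) rfl (cox_one 2 6)

theorem lf38 : (∀ p ∈ W38, p ∈ cert.LS) ∧ ev (fun k => el (jm [0, 1, 2, 3, 4, 5, 6] k)) W38 = 1 :=
  leaf_okJ cert el [0, 1, 2, 3, 4, 5, 6] hsel [4, 5, 4, 5] [4, 5, 4, 5] W38 rfl (by decide) rfl (cox_one 4 5)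

theorem lf39 : (∀ p ∈ W39, p ∈ cert.LS) ∧ ev (fun k => el (jm [0, 1, 2, 3, 4, 5, 6] k)) W39 = 1 :=
  leaf_okJ cert el [0, 1, 2, 3, 4, 5, 6] hsel [4, 6, 4, 6] [4, 6, 4, 6] W39 rfl (by decide) rfl (cox_one 4 6)

theorem lf40 : (∀ p ∈ W40, p ∈ cert.LS) ∧ ev (fun k => el (jm [0, 1, 2, 3, 4, 5, 6] k)) W40 = 1 :=
  leaf_okJ cert el [0, 1, 2, 3, 4, 5, 6] hsel [5, 6, 5, 4, 6] [5, 6, 5, 4, 6] W40 rfl (by decide) rfl (evn_rot el [4, 6] [5, 6, 5] xg0_one)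

theorem lf41 : (∀ p ∈ W41, p ∈ cert.LS) ∧ ev (fun k => el (jm [0, 1, 2, 3, 4, 5, 6] k)) W41 = 1 :=
  leaf_okJ cert el [0, 1, 2, 3, 4, 5, 6] hsel [6, 5, 4, 6, 5] [6, 5, 4, 6, 5] W41 rfl (by decide) rfl (evn_rot el [4, 6, 5] [6, 5] xg0_one)

theorem lf42 : (∀ p ∈ W42, p ∈ cert.LS) ∧ ev (fun k => el (jm [0, 1, 2, 3, 4, 5, 6] k)) W42 = 1 :=
  leaf_okJ cert el [0, 1, 2, 3, 4, 5, 6] hsel [2, 3, 2, 3, 2, 3, 2, 3, 2, 0, 3] [2, 3, 2, 3, 2, 3, 2, 3, 2, 0, 3] W42 rfl (by decide) rfl (evn_rot el [0, 3] [2, 3, 2, 3, 2, 3, 2, 3, 2] xg2_one)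

theorem lf43 : (∀ p ∈ W43, p ∈ cert.LS) ∧ ev (fun k => el (jm [0, 1, 2, 3, 4, 5, 6] k)) W43 = 1 :=
  leaf_okJ cert el [0, 1, 2, 3, 4, 5, 6] hsel [2, 0, 2, 0] [2, 0, 2, 0] W43 rfl (by decide) rfl (cox_one 2 0)

theorem lf44 : (∀ p ∈ W44, p ∈ cert.LS) ∧ ev (fun k => el (jm [0, 1, 2, 3, 4, 5, 6] k)) W44 = 1 :=
  leaf_okJ cert el [0, 1, 2, 3, 4, 5, 6] hsel [1, 0, 2, 1, 0, 4, 2, 1, 0, 2] [1, 0, 2, 1, 0, 4, 2, 1, 0, 2] W44 rfl (by decide) rfl (evn_rot el [4, 2, 1, 0, 2] [1, 0, 2, 1, 0] xg1_one)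

theorem lf45 : (∀ p ∈ W45, p ∈ cert.LS) ∧ ev (fun k => el (jm [0, 1, 2, 3, 4, 5, 6] k)) W45 = 1 :=
  leaf_okJ cert el [0, 1, 2, 3, 4, 5, 6] hsel [4, 2, 1, 0, 2, 1, 0, 2, 1, 0] [4, 2, 1, 0, 2, 1, 0, 2, 1, 0] W45 rfl (by decide) rfl (evn_rot el [] [4, 2, 1, 0, 2, 1, 0, 2, 1, 0] xg1_one)

theorem lf46 : (∀ p ∈ W46, p ∈ cert.LS) ∧ ev (fun k => el (jm [0, 1, 2, 3, 4, 5, 6] k)) W46 = 1 :=
  leaf_okJ cert el [0, 1, 2, 3, 4, 5, 6] hsel [3, 2, 6, 5, 3, 2, 6, 5, 3, 2, 6, 5, 3, 2, 6, 5] [3, 2, 6, 5, 3, 2, 6, 5, 3, 2, 6, 5, 3, 2, 6, 5] W46 rfl (by decide) rfl (evn_rot el [6, 5] [3, 2, 6, 5, 3, 2, 6, 5, 3, 2, 6, 5, 3, 2] (evn_rev el el_sq _ xg3_one))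

theorem lf47 : (∀ p ∈ W47, p ∈ cert.LS) ∧ ev (fun k => el (jm [0, 1, 2, 3, 4, 5, 6] k)) W47 = 1 :=
  leaf_okJ cert el [0, 1, 2, 3, 4, 5, 6] hsel [4, 3, 4, 3, 4, 3] [4, 3, 4, 3, 4, 3] W47 rfl (by decide) rfl (cox_one 4 3)

theorem lf48 : (∀ p ∈ W48, p ∈ cert.LS) ∧ ev (fun k => el (jm [0, 1, 2, 3, 4, 5, 6] k)) W48 = 1 :=
  leaf_okJ cert el [0, 1, 2, 3, 4, 5, 6] hsel [5, 3, 5, 3, 5, 3] [5, 3, 5, 3, 5, 3] W48 rfl (by decide) rfl (cox_one 5 3)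

theorem lf49 : (∀ p ∈ W49, p ∈ cert.LS) ∧ ev (fun k => el (jm [0, 1, 2, 3, 4, 5, 6] k)) W49 = 1 :=
  leaf_okJ cert el [0, 1, 2, 3, 4, 5, 6] hsel [6, 3, 6, 3, 6, 3] [6, 3, 6, 3, 6, 3] W49 rfl (by decide) rfl (cox_one 6 3)

theorem lf50 : (∀ p ∈ W50, p ∈ cert.LS) ∧ ev (fun k => el (jm [0, 1, 2, 3, 4, 5, 6] k)) W50 = 1 :=
  leaf_okJ cert el [0, 1, 2, 3, 4, 5, 6] hsel [1, 0, 1, 0, 1, 0, 1, 0] [1, 0, 1, 0, 1, 0, 1, 0] W50 rfl (by decide) rfl (cox_one 1 0)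

theorem lf51 : (∀ p ∈ W51, p ∈ cert.LS) ∧ ev (fun k => el (jm [0, 1, 2, 3, 4, 5, 6] k)) W51 = 1 :=
  leaf_okJ cert el [0, 1, 2, 3, 4, 5, 6] hsel [6, 4, 6, 4] [6, 4, 6, 4] W51 rfl (by decide) rfl (cox_one 6 4)

theorem lf52 : (∀ p ∈ W52, p ∈ cert.LS) ∧ ev (fun k => el (jm [0, 1, 2, 3, 4, 5, 6] k)) W52 = 1 :=
  leaf_okJ cert el [0, 1, 2, 3, 4, 5, 6] hsel [5, 4, 5, 4] [5, 4, 5, 4] W52 rfl (by decide) rfl (cox_one 5 4)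

theorem lf53 : (∀ p ∈ W53, p ∈ cert.LS) ∧ ev (fun k => el (jm [0, 1, 2, 3, 4, 5, 6] k)) W53 = 1 :=
  leaf_okJ cert el [0, 1, 2, 3, 4, 5, 6] hsel [2, 1, 0, 2, 1, 0, 2, 1, 0, 4] [2, 1, 0, 2, 1, 0, 2, 1, 0, 4] W53 rfl (by decide) rfl (evn_rot el [4] [2, 1, 0, 2, 1, 0, 2, 1, 0] xg1_one)

theorem lf54 : (∀ p ∈ W54, p ∈ cert.LS) ∧ ev (fun k => el (jm [0, 1, 2, 3, 4, 5, 6] k)) W54 = 1 :=
  leaf_okJ cert el [0, 1, 2, 3, 4, 5, 6] hsel [6, 5, 6, 5, 4] [6, 5, 6, 5, 4] W54 rfl (by decide) rfl (evn_rot el [4] [6, 5, 6, 5] xg0_one)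

theorem lf55 : (∀ p ∈ W55, p ∈ cert.LS) ∧ ev (fun k => el (jm [0, 1, 2, 3, 4, 5, 6] k)) W55 = 1 :=
  leaf_okJ cert el [0, 1, 2, 3, 4, 5, 6] hsel [4, 5, 6, 5, 6] [4, 5, 6, 5, 6] W55 rfl (by decide) rfl (evn_rot el [5, 6, 5, 6] [4] (evn_rev el el_sq _ xg0_one))

theorem lf56 : (∀ p ∈ W56, p ∈ cert.LS) ∧ ev (fun k => el (jm [0, 1, 2, 3, 4, 5, 6] k)) W56 = 1 :=
  leaf_okJ cert el [0, 1, 2, 3, 4, 5, 6] hsel [4, 6, 5, 6, 5] [4, 6, 5, 6, 5] W56 rfl (by decide) rfl (evn_rot el [] [4, 6, 5, 6, 5] xg0_one)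

theorem lf57 : (∀ p ∈ W57, p ∈ cert.LS) ∧ ev (fun k => el (jm [0, 1, 2, 3, 4, 5, 6] k)) W57 = 1 :=
  leaf_okJ cert el [0, 1, 2, 3, 4, 5, 6] hsel [0, 2, 1, 0, 2, 1, 0, 4, 2, 1] [0, 2, 1, 0, 2, 1, 0, 4, 2, 1] W57 rfl (by decide) rfl (evn_rot el [4, 2, 1] [0, 2, 1, 0, 2, 1, 0] xg1_one)

theorem lf58 : (∀ p ∈ W58, p ∈ cert.LS) ∧ ev (fun k => el (jm [0, 1, 2, 3, 4, 5, 6] k)) W58 = 1 :=
  leaf_okJ cert el [0, 1, 2, 3, 4, 5, 6] hsel [5, 6, 5, 6, 4] [5, 6, 5, 6, 4] W58 rfl (by decide) rfl (evn_rot el [] [5, 6, 5, 6, 4] (evn_rev el el_sq _ xg0_one))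

theorem lf59 : (∀ p ∈ W59, p ∈ cert.LS) ∧ ev (fun k => el (jm [0, 1, 2, 3, 4, 5, 6] k)) W59 = 1 :=
  leaf_okJ cert el [0, 1, 2, 3, 4, 5, 6] hsel [5, 6, 4, 5, 6] [5, 6, 4, 5, 6] W59 rfl (by decide) rfl (evn_rot el [5, 6] [5, 6, 4] (evn_rev el el_sq _ xg0_one))

theorem lf60 : (∀ p ∈ W60, p ∈ cert.LS) ∧ ev (fun k => el (jm [0, 1, 2, 3, 4, 5, 6] k)) W60 = 1 :=
  leaf_okJ cert el [0, 1, 2, 3, 4, 5, 6] hsel [3, 5, 6, 2, 3, 5, 6, 2, 3, 5, 6, 2, 3, 5, 6, 2] [3, 5, 6, 2, 3, 5, 6, 2, 3, 5, 6, 2, 3, 5, 6, 2] W60 rfl (by decide) rfl (evn_rot el [2] [3, 5, 6, 2, 3, 5, 6, 2, 3, 5, 6, 2, 3, 5, 6] xg3_one)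

theorem lf61 : (∀ p ∈ W61, p ∈ cert.LS) ∧ ev (fun k => el (jm [0, 1, 2, 3, 4, 5, 6] k)) W61 = 1 :=
  leaf_okJ cert el [0, 1, 2, 3, 4, 5, 6] hsel [6, 2, 3, 5, 6, 2, 3, 5, 6, 2, 3, 5, 6, 2, 3, 5] [6, 2, 3, 5, 6, 2, 3, 5, 6, 2, 3, 5, 6, 2, 3, 5] W61 rfl (by decide) rfl (evn_rot el [2, 3, 5] [6, 2, 3, 5, 6, 2, 3, 5, 6, 2, 3, 5, 6] xg3_one)

theorem lf62 : (∀ p ∈ W62, p ∈ cert.LS) ∧ ev (fun k => el (jm [0, 1, 2, 3, 4, 5, 6] k)) W62 = 1 :=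
  leaf_okJ cert el [0, 1, 2, 3, 4, 5, 6] hsel [2, 6, 5, 3, 2, 6, 5, 3, 2, 6, 5, 3, 2, 6, 5, 3] [2, 6, 5, 3, 2, 6, 5, 3, 2, 6, 5, 3, 2, 6, 5, 3] W62 rfl (by decide) rfl (evn_rot el [6, 5, 3] [2, 6, 5, 3, 2, 6, 5, 3, 2, 6, 5, 3, 2] (evn_rev el el_sq _ xg3_one))

theorem lf63 : (∀ p ∈ W63, p ∈ cert.LS) ∧ ev (fun k => el (jm [0, 1, 2, 3, 4, 5, 6] k)) W63 = 1 :=
  leaf_okJ cert el [0, 1, 2, 3, 4, 5, 6] hsel [0, 4, 2, 1, 0, 2, 1, 0, 2, 1] [0, 4, 2, 1, 0, 2, 1, 0, 2, 1] W63 rfl (by decide) rfl (evn_rot el [4, 2, 1, 0, 2, 1, 0, 2, 1] [0] xg1_one)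

theorem lf64 : (∀ p ∈ W64, p ∈ cert.LS) ∧ ev (fun k => el (jm [0, 1, 2, 3, 4, 5, 6] k)) W64 = 1 :=
  leaf_okJ cert el [0, 1, 2, 3, 4, 5, 6] hsel [5, 4, 6, 5, 6] [5, 4, 6, 5, 6] W64 rfl (by decide) rfl (evn_rot el [4, 6, 5, 6] [5] xg0_one)

theorem lf65 : (∀ p ∈ W65, p ∈ cert.LS) ∧ ev (fun k => el (jm [0, 1, 2, 3, 4, 5, 6] k)) W65 = 1 :=
  leaf_okJ cert el [0, 1, 2, 3, 4, 5, 6] hsel [6, 4, 5, 6, 5] [6, 4, 5, 6, 5] W65 rfl (by decide) rfl (evn_rot el [5, 6, 5] [6, 4] (evn_rev el el_sq _ xg0_one))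

theorem lf66 : (∀ p ∈ W66, p ∈ cert.LS) ∧ ev (fun k => el (jm [0, 1, 2, 3, 4, 5, 6] k)) W66 = 1 :=
  leaf_okJ cert el [0, 1, 2, 3, 4, 5, 6] hsel [3, 2, 3, 2, 3, 2, 3, 2, 0, 3, 2] [3, 2, 3, 2, 3, 2, 3, 2, 0, 3, 2] W66 rfl (by decide) rfl (evn_rot el [0, 3, 2] [3, 2, 3, 2, 3, 2, 3, 2] xg2_one)

theorem lf67 : (∀ p ∈ W67, p ∈ cert.LS) ∧ ev (fun k => el (jm [0, 1, 2, 3, 4, 5, 6] k)) W67 = 1 :=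
  leaf_okJ cert el [0, 1, 2, 3, 4, 5, 6] hsel [1, 2, 0, 1, 2, 4, 0, 1, 2, 0] [1, 2, 0, 1, 2, 4, 0, 1, 2, 0] W67 rfl (by decide) rfl (evn_rot el [0, 1, 2, 0] [1, 2, 0, 1, 2, 4] (evn_rev el el_sq _ xg1_one))

theorem lf68 : (∀ p ∈ W68, p ∈ cert.LS) ∧ ev (fun k => el (jm [0, 1, 2, 3, 4, 5, 6] k)) W68 = 1 :=
  leaf_okJ cert el [0, 1, 2, 3, 4, 5, 6] hsel [5, 6, 2, 3, 5, 6, 2, 3, 5, 6, 2, 3, 5, 6, 2, 3] [5, 6, 2, 3, 5, 6, 2, 3, 5, 6, 2, 3, 5, 6, 2, 3] W68 rfl (by decide) rfl (evn_rot el [2, 3] [5, 6, 2, 3, 5, 6, 2, 3, 5, 6, 2, 3, 5, 6] xg3_one)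

theorem lf69 : (∀ p ∈ W69, p ∈ cert.LS) ∧ ev (fun k => el (jm [0, 1, 2, 3, 4, 5, 6] k)) W69 = 1 :=
  leaf_okJ cert el [0, 1, 2, 3, 4, 5, 6] hsel [6, 5, 3, 2, 6, 5, 3, 2, 6, 5, 3, 2, 6, 5, 3, 2] [6, 5, 3, 2, 6, 5, 3, 2, 6, 5, 3, 2, 6, 5, 3, 2] W69 rfl (by decide) rfl (evn_rot el [] [6, 5, 3, 2, 6, 5, 3, 2, 6, 5, 3, 2, 6, 5, 3, 2] (evn_rev el el_sq _ xg3_one))

theorem lf70 : (∀ p ∈ W70, p ∈ cert.LS) ∧ ev (fun k => el (jm [0, 1, 2, 3, 4, 5, 6] k)) W70 = 1 :=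
  leaf_okJ cert el [0, 1, 2, 3, 4, 5, 6] hsel [6, 5, 6, 4, 5] [6, 5, 6, 4, 5] W70 rfl (by decide) rfl (evn_rot el [5] [6, 5, 6, 4] (evn_rev el el_sq _ xg0_one))

theorem lf71 : (∀ p ∈ W71, p ∈ cert.LS) ∧ ev (fun k => el (jm [0, 1, 2, 3, 4, 5, 6] k)) W71 = 1 :=
  leaf_okJ cert el [0, 1, 2, 3, 4, 5, 6] hsel [2, 3, 5, 6, 2, 3, 5, 6, 2, 3, 5, 6, 2, 3, 5, 6] [2, 3, 5, 6, 2, 3, 5, 6, 2, 3, 5, 6, 2, 3, 5, 6] W71 rfl (by decide) rfl (evn_rot el [] [2, 3, 5, 6, 2, 3, 5, 6, 2, 3, 5, 6, 2, 3, 5, 6] xg3_one)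

theorem lf72 : (∀ p ∈ W72, p ∈ cert.LS) ∧ ev (fun k => el (jm [0, 1, 2, 3, 4, 5, 6] k)) W72 = 1 :=
  leaf_okJ cert el [0, 1, 2, 3, 4, 5, 6] hsel [2, 3, 2, 3, 2, 3, 2, 0, 3, 2, 3] [2, 3, 2, 3, 2, 3, 2, 0, 3, 2, 3] W72 rfl (by decide) rfl (evn_rot el [0, 3, 2, 3] [2, 3, 2, 3, 2, 3, 2] xg2_one)

theorem lf73 : (∀ p ∈ W73, p ∈ cert.LS) ∧ ev (fun k => el (jm [0, 1, 2, 3, 4, 5, 6] k)) W73 = 1 :=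
  leaf_okJ cert el [0, 1, 2, 3, 4, 5, 6] hsel [2, 0, 3, 2, 3, 2, 3, 2, 3, 2, 3] [2, 0, 3, 2, 3, 2, 3, 2, 3, 2, 3] W73 rfl (by decide) rfl (evn_rot el [0, 3, 2, 3, 2, 3, 2, 3, 2, 3] [2] xg2_one)

theorem lf74 : (∀ p ∈ W74, p ∈ cert.LS) ∧ ev (fun k => el (jm [0, 1, 2, 3, 4, 5, 6] k)) W74 = 1 :=
  leaf_okJ cert el [0, 1, 2, 3, 4, 5, 6] hsel [2, 3, 2, 3, 2, 0, 3, 2, 3, 2, 3] [2, 3, 2, 3, 2, 0, 3, 2, 3, 2, 3] W74 rfl (by decide) rfl (evn_rot el [0, 3, 2, 3, 2, 3] [2, 3, 2, 3, 2] xg2_one)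

theorem lf75 : (∀ p ∈ W75, p ∈ cert.LS) ∧ ev (fun k => el (jm [0, 1, 2, 3, 4, 5, 6] k)) W75 = 1 :=
  leaf_okJ cert el [0, 1, 2, 3, 4, 5, 6] hsel [3, 2, 3, 2, 0, 3, 2, 3, 2, 3, 2] [3, 2, 3, 2, 0, 3, 2, 3, 2, 3, 2] W75 rfl (by decide) rfl (evn_rot el [0, 3, 2, 3, 2, 3, 2] [3, 2, 3, 2] xg2_one)

theorem lf76 : (∀ p ∈ W76, p ∈ cert.LS) ∧ ev (fun k => el (jm [0, 1, 2, 3, 4, 5, 6] k)) W76 = 1 :=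
  leaf_okJ cert el [0, 1, 2, 3, 4, 5, 6] hsel [2, 3, 2, 0, 3, 2, 3, 2, 3, 2, 3] [2, 3, 2, 0, 3, 2, 3, 2, 3, 2, 3] W76 rfl (by decide) rfl (evn_rot el [0, 3, 2, 3, 2, 3, 2, 3] [2, 3, 2] xg2_one)

theorem lf77 : (∀ p ∈ W77, p ∈ cert.LS) ∧ ev (fun k => el (jm [0, 1, 2, 3, 4, 5, 6] k)) W77 = 1 :=
  leaf_okJ cert el [0, 1, 2, 3, 4, 5, 6] hsel [1, 2, 4, 0, 1, 2, 0, 1, 2, 0] [1, 2, 4, 0, 1, 2, 0, 1, 2, 0] W77 rfl (by decide) rfl (evn_rot el [0, 1, 2, 0, 1, 2, 0] [1, 2, 4] (evn_rev el el_sq _ xg1_one))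

theorem lf78 : (∀ p ∈ W78, p ∈ cert.LS) ∧ ev (fun k => el (jm [0, 1, 2, 3, 4, 5, 6] k)) W78 = 1 :=
  leaf_okJ cert el [0, 1, 2, 3, 4, 5, 6] hsel [2, 3, 2, 3, 2, 3, 0, 2, 3, 2, 3] [2, 3, 2, 3, 2, 3, 0, 2, 3, 2, 3] W78 rfl (by decide) rfl (evn_rot el [2, 3, 2, 3] [2, 3, 2, 3, 2, 3, 0] (evn_rev el el_sq _ xg2_one))

theorem lf79 : (∀ p ∈ W79, p ∈ cert.LS) ∧ ev (fun k => el (jm [0, 1, 2, 3, 4, 5, 6] k)) W79 = 1 :=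
  leaf_okJ cert el [0, 1, 2, 3, 4, 5, 6] hsel [5, 3, 2, 6, 5, 3, 2, 6, 5, 3, 2, 6, 5, 3, 2, 6] [5, 3, 2, 6, 5, 3, 2, 6, 5, 3, 2, 6, 5, 3, 2, 6] W79 rfl (by decide) rfl (evn_rot el [6] [5, 3, 2, 6, 5, 3, 2, 6, 5, 3, 2, 6, 5, 3, 2] (evn_rev el el_sq _ xg3_one))

theorem lf80 : (∀ p ∈ W80, p ∈ cert.LS) ∧ ev (fun k => el (jm [0, 1, 2, 3, 4, 5, 6] k)) W80 = 1 :=
  leaf_okJ cert el [0, 1, 2, 3, 4, 5, 6] hsel [3, 2, 3, 2, 3, 2, 3, 2, 3, 0, 2] [3, 2, 3, 2, 3, 2, 3, 2, 3, 0, 2] W80 rfl (by decide) rfl (evn_rot el [2] [3, 2, 3, 2, 3, 2, 3, 2, 3, 0] (evn_rev el el_sq _ xg2_one))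

theorem lf81 : (∀ p ∈ W81, p ∈ cert.LS) ∧ ev (fun k => el (jm [0, 1, 2, 3, 4, 5, 6] k)) W81 = 1 :=
  leaf_okJ cert el [0, 1, 2, 3, 4, 5, 6] hsel [2, 3, 2, 3, 2, 3, 2, 3, 0, 2, 3] [2, 3, 2, 3, 2, 3, 2, 3, 0, 2, 3] W81 rfl (by decide) rfl (evn_rot el [2, 3] [2, 3, 2, 3, 2, 3, 2, 3, 0] (evn_rev el el_sq _ xg2_one))

theorem lf82 : (∀ p ∈ W82, p ∈ cert.LS) ∧ ev (fun k => el (jm [0, 1, 2, 3, 4, 5, 6] k)) W82 = 1 :=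
  leaf_okJ cert el [0, 1, 2, 3, 4, 5, 6] hsel [3, 2, 3, 2, 3, 2, 0, 3, 2, 3, 2] [3, 2, 3, 2, 3, 2, 0, 3, 2, 3, 2] W82 rfl (by decide) rfl (evn_rot el [0, 3, 2, 3, 2] [3, 2, 3, 2, 3, 2] xg2_one)

theorem lf83 : (∀ p ∈ W83, p ∈ cert.LS) ∧ ev (fun k => el (jm [0, 1, 2, 3, 4, 5, 6] k)) W83 = 1 :=
  leaf_okJ cert el [0, 1, 2, 3, 4, 5, 6] hsel [3, 2, 3, 2, 3, 2, 3, 2, 3, 2, 0] [3, 2, 3, 2, 3, 2, 3, 2, 3, 2, 0] W83 rfl (by decide) rfl (evn_rot el [0] [3, 2, 3, 2, 3, 2, 3, 2, 3, 2] xg2_one)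

theorem lf84 : (∀ p ∈ W84, p ∈ cert.LS) ∧ ev (fun k => el (jm [0, 1, 2, 3, 4, 5, 6] k)) W84 = 1 :=
  leaf_okJ cert el [0, 1, 2, 3, 4, 5, 6] hsel [4, 0, 1, 2, 0, 1, 2, 0, 1, 2] [4, 0, 1, 2, 0, 1, 2, 0, 1, 2] W84 rfl (by decide) rfl (evn_rot el [0, 1, 2, 0, 1, 2, 0, 1, 2] [4] (evn_rev el el_sq _ xg1_one))

theorem lf85 : (∀ p ∈ W85, p ∈ cert.LS) ∧ ev (fun k => el (jm [0, 1, 2, 3, 4, 5, 6] k)) W85 = 1 :=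
  leaf_okJ cert el [0, 1, 2, 3, 4, 5, 6] hsel [0, 2, 3, 2, 3, 2, 3, 2, 3, 2, 3] [0, 2, 3, 2, 3, 2, 3, 2, 3, 2, 3] W85 rfl (by decide) rfl (evn_rot el [2, 3, 2, 3, 2, 3, 2, 3, 2, 3] [0] (evn_rev el el_sq _ xg2_one))

theorem lf86 : (∀ p ∈ W86, p ∈ cert.LS) ∧ ev (fun k => el (jm [0, 1, 2, 3, 4, 5, 6] k)) W86 = 1 :=
  leaf_okJ cert el [0, 1, 2, 3, 4, 5, 6] hsel [1, 2, 0, 1, 2, 0, 1, 2, 4, 0] [1, 2, 0, 1, 2, 0, 1, 2, 4, 0] W86 rfl (by decide) rfl (evn_rot el [0] [1, 2, 0, 1, 2, 0, 1, 2, 4] (evn_rev el el_sq _ xg1_one))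

theorem lf87 : (∀ p ∈ W87, p ∈ cert.LS) ∧ ev (fun k => el (jm [0, 1, 2, 3, 4, 5, 6] k)) W87 = 1 :=
  leaf_okJ cert el [0, 1, 2, 3, 4, 5, 6] hsel [0, 1, 2, 4, 0, 1, 2, 0, 1, 2] [0, 1, 2, 4, 0, 1, 2, 0, 1, 2] W87 rfl (by decide) rfl (evn_rot el [0, 1, 2, 0, 1, 2] [0, 1, 2, 4] (evn_rev el el_sq _ xg1_one))

theorem lf88 : (∀ p ∈ W88, p ∈ cert.LS) ∧ ev (fun k => el (jm [0, 1, 2, 3, 4, 5, 6] k)) W88 = 1 :=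
  leaf_okJ cert el [0, 1, 2, 3, 4, 5, 6] hsel [3, 2, 0, 3, 2, 3, 2, 3, 2, 3, 2] [3, 2, 0, 3, 2, 3, 2, 3, 2, 3, 2] W88 rfl (by decide) rfl (evn_rot el [0, 3, 2, 3, 2, 3, 2, 3, 2] [3, 2] xg2_one)

theorem lf89 : (∀ p ∈ W89, p ∈ cert.LS) ∧ ev (fun k => el (jm [0, 1, 2, 3, 4, 5, 6] k)) W89 = 1 :=
  leaf_okJ cert el [0, 1, 2, 3, 4, 5, 6] hsel [1, 0, 4, 2, 1, 0, 2, 1, 0, 2] [1, 0, 4, 2, 1, 0, 2, 1, 0, 2] W89 rfl (by decide) rfl (evn_rot el [4, 2, 1, 0, 2, 1, 0, 2] [1, 0] xg1_one)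

theorem lf90 : (∀ p ∈ W90, p ∈ cert.LS) ∧ ev (fun k => el (jm [0, 1, 2, 3, 4, 5, 6] k)) W90 = 1 :=
  leaf_okJ cert el [0, 1, 2, 3, 4, 5, 6] hsel [3, 2, 3, 2, 3, 2, 3, 0, 2, 3, 2] [3, 2, 3, 2, 3, 2, 3, 0, 2, 3, 2] W90 rfl (by decide) rfl (evn_rot el [2, 3, 2] [3, 2, 3, 2, 3, 2, 3, 0] (evn_rev el el_sq _ xg2_one))

theorem lf91 : (∀ p ∈ W91, p ∈ cert.LS) ∧ ev (fun k => el (jm [0, 1, 2, 3, 4, 5, 6] k)) W91 = 1 :=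
  leaf_okJ cert el [0, 1, 2, 3, 4, 5, 6] hsel [2, 0, 1, 2, 0, 1, 2, 4, 0, 1] [2, 0, 1, 2, 0, 1, 2, 4, 0, 1] W91 rfl (by decide) rfl (evn_rot el [0, 1] [2, 0, 1, 2, 0, 1, 2, 4] (evn_rev el el_sq _ xg1_one))

theorem lf92 : (∀ p ∈ W92, p ∈ cert.LS) ∧ ev (fun k => el (jm [0, 1, 2, 3, 4, 5, 6] k)) W92 = 1 :=
  leaf_okJ cert el [0, 1, 2, 3, 4, 5, 6] hsel [2, 1, 0, 4, 2, 1, 0, 2, 1, 0] [2, 1, 0, 4, 2, 1, 0, 2, 1, 0] W92 rfl (by decide) rfl (evn_rot el [4, 2, 1, 0, 2, 1, 0] [2, 1, 0] xg1_one)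

theorem lf93 : (∀ p ∈ W93, p ∈ cert.LS) ∧ ev (fun k => el (jm [0, 1, 2, 3, 4, 5, 6] k)) W93 = 1 :=
  leaf_okJ cert el [0, 1, 2, 3, 4, 5, 6] hsel [0, 1, 2, 0, 1, 2, 0, 1, 2, 4] [0, 1, 2, 0, 1, 2, 0, 1, 2, 4] W93 rfl (by decide) rfl (evn_rot el [] [0, 1, 2, 0, 1, 2, 0, 1, 2, 4] (evn_rev el el_sq _ xg1_one))

theorem lf94 : (∀ p ∈ W94, p ∈ cert.LS) ∧ ev (fun k => el (jm [0, 1, 2, 3, 4, 5, 6] k)) W94 = 1 :=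
  leaf_okJ cert el [0, 1, 2, 3, 4, 5, 6] hsel [3, 0, 2, 3, 2, 3, 2, 3, 2, 3, 2] [3, 0, 2, 3, 2, 3, 2, 3, 2, 3, 2] W94 rfl (by decide) rfl (evn_rot el [2, 3, 2, 3, 2, 3, 2, 3, 2] [3, 0] (evn_rev el el_sq _ xg2_one))

theorem lf95 : (∀ p ∈ W95, p ∈ cert.LS) ∧ ev (fun k => el (jm [0, 1, 2, 3, 4, 5, 6] k)) W95 = 1 :=
  leaf_okJ cert el [0, 1, 2, 3, 4, 5, 6] hsel [3, 2, 3, 0, 2, 3, 2, 3, 2, 3, 2] [3, 2, 3, 0, 2, 3, 2, 3, 2, 3, 2] W95 rfl (by decide) rfl (evn_rot el [2, 3, 2, 3, 2, 3, 2] [3, 2, 3, 0] (evn_rev el el_sq _ xg2_one))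

theorem lf96 : (∀ p ∈ W96, p ∈ cert.LS) ∧ ev (fun k => el (jm [0, 1, 2, 3, 4, 5, 6] k)) W96 = 1 :=
  leaf_okJ cert el [0, 1, 2, 3, 4, 5, 6] hsel [2, 1, 0, 2, 1, 0, 4, 2, 1, 0] [2, 1, 0, 2, 1, 0, 4, 2, 1, 0] W96 rfl (by decide) rfl (evn_rot el [4, 2, 1, 0] [2, 1, 0, 2, 1, 0] xg1_one)

theorem lf97 : (∀ p ∈ W97, p ∈ cert.LS) ∧ ev (fun k => el (jm [0, 1, 2, 3, 4, 5, 6] k)) W97 = 1 :=
  leaf_okJ cert el [0, 1, 2, 3, 4, 5, 6] hsel [2, 3, 0, 2, 3, 2, 3, 2, 3, 2, 3] [2, 3, 0, 2, 3, 2, 3, 2, 3, 2, 3] W97 rfl (by decide) rfl (evn_rot el [2, 3, 2, 3, 2, 3, 2, 3] [2, 3, 0] (evn_rev el el_sq _ xg2_one))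

theorem lf98 : (∀ p ∈ W98, p ∈ cert.LS) ∧ ev (fun k => el (jm [0, 1, 2, 3, 4, 5, 6] k)) W98 = 1 :=
  leaf_okJ cert el [0, 1, 2, 3, 4, 5, 6] hsel [2, 0, 1, 2, 4, 0, 1, 2, 0, 1] [2, 0, 1, 2, 4, 0, 1, 2, 0, 1] W98 rfl (by decide) rfl (evn_rot el [0, 1, 2, 0, 1] [2, 0, 1, 2, 4] (evn_rev el el_sq _ xg1_one))

theorem lf99 : (∀ p ∈ W99, p ∈ cert.LS) ∧ ev (fun k => el (jm [0, 1, 2, 3, 4, 5, 6] k)) W99 = 1 :=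
  leaf_okJ cert el [0, 1, 2, 3, 4, 5, 6] hsel [2, 3, 2, 3, 2, 3, 2, 3, 2, 3, 0] [2, 3, 2, 3, 2, 3, 2, 3, 2, 3, 0] W99 rfl (by decide) rfl (evn_rot el [] [2, 3, 2, 3, 2, 3, 2, 3, 2, 3, 0] (evn_rev el el_sq _ xg2_one))

theorem lf100 : (∀ p ∈ W100, p ∈ cert.LS) ∧ ev (fun k => el (jm [0, 1, 2, 3, 4, 5, 6] k)) W100 = 1 :=
  leaf_okJ cert el [0, 1, 2, 3, 4, 5, 6] hsel [0, 1, 2, 0, 1, 2, 4, 0, 1, 2] [0, 1, 2, 0, 1, 2, 4, 0, 1, 2] W100 rfl (by decide) rfl (evn_rot el [0, 1, 2] [0, 1, 2, 0, 1, 2, 4] (evn_rev el el_sq _ xg1_one))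

theorem lf101 : (∀ p ∈ W101, p ∈ cert.LS) ∧ ev (fun k => el (jm [0, 1, 2, 3, 4, 5, 6] k)) W101 = 1 :=
  leaf_okJ cert el [0, 1, 2, 3, 4, 5, 6] hsel [0, 3, 2, 3, 2, 3, 2, 3, 2, 3, 2] [0, 3, 2, 3, 2, 3, 2, 3, 2, 3, 2] W101 rfl (by decide) rfl (evn_rot el [] [0, 3, 2, 3, 2, 3, 2, 3, 2, 3, 2] xg2_one)

theorem lf102 : (∀ p ∈ W102, p ∈ cert.LS) ∧ ev (fun k => el (jm [0, 1, 2, 3, 4, 5, 6] k)) W102 = 1 :=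
  leaf_okJ cert el [0, 1, 2, 3, 4, 5, 6] hsel [3, 2, 3, 2, 3, 0, 2, 3, 2, 3, 2] [3, 2, 3, 2, 3, 0, 2, 3, 2, 3, 2] W102 rfl (by decide) rfl (evn_rot el [2, 3, 2, 3, 2] [3, 2, 3, 2, 3, 0] (evn_rev el el_sq _ xg2_one))

theorem lf103 : (∀ p ∈ W103, p ∈ cert.LS) ∧ ev (fun k => el (jm [0, 1, 2, 3, 4, 5, 6] k)) W103 = 1 :=
  leaf_okJ cert el [0, 1, 2, 3, 4, 5, 6] hsel [0, 2, 1, 0, 4, 2, 1, 0, 2, 1] [0, 2, 1, 0, 4, 2, 1, 0, 2, 1] W103 rfl (by decide) rfl (evn_rot el [4, 2, 1, 0, 2, 1] [0, 2, 1, 0] xg1_one)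

theorem lf104 : (∀ p ∈ W104, p ∈ cert.LS) ∧ ev (fun k => el (jm [0, 1, 2, 3, 4, 5, 6] k)) W104 = 1 :=
  leaf_okJ cert el [0, 1, 2, 3, 4, 5, 6] hsel [2, 3, 2, 3, 0, 2, 3, 2, 3, 2, 3] [2, 3, 2, 3, 0, 2, 3, 2, 3, 2, 3] W104 rfl (by decide) rfl (evn_rot el [2, 3, 2, 3, 2, 3] [2, 3, 2, 3, 0] (evn_rev el el_sq _ xg2_one))

theorem tree_ok : cert.tree.All (fun W => (∀ p ∈ W, p ∈ cert.LS) ∧ ev (fun k => el (jm [0, 1, 2, 3, 4, 5, 6] k)) W = 1) :=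
  ⟨⟨⟨⟨⟨⟨⟨lf0, lf64⟩, ⟨lf32, lf96⟩⟩, ⟨⟨lf16, lf80⟩, lf48⟩⟩, ⟨⟨⟨lf8, lf72⟩, ⟨lf40, lf104⟩⟩, ⟨⟨lf24, lf88⟩, lf56⟩⟩⟩, ⟨⟨⟨⟨lf4, lf68⟩, ⟨lf36, lf100⟩⟩, ⟨⟨lf20, lf84⟩, lf52⟩⟩, ⟨⟨⟨lf12, lf76⟩, lf44⟩, ⟨⟨lf28, lf92⟩, lf60⟩⟩⟩⟩, ⟨⟨⟨⟨⟨lf2, lf66⟩, ⟨lf34, lf98⟩⟩, ⟨⟨lf18, lf82⟩, lf50⟩⟩, ⟨⟨⟨lf10, lf74⟩, lf42⟩, ⟨⟨lf26, lf90⟩, lf58⟩⟩⟩, ⟨⟨⟨⟨lf6, lf70⟩, ⟨lf38, lf102⟩⟩, ⟨⟨lf22, lf86⟩, lf54⟩⟩, ⟨⟨⟨lf14, lf78⟩, lf46⟩, ⟨⟨lf30, lf94⟩, lf62⟩⟩⟩⟩⟩, ⟨⟨⟨⟨⟨⟨lf1, lf65⟩, ⟨lf33, lf97⟩⟩, ⟨⟨lf17, lf81⟩, lf49⟩⟩, ⟨⟨⟨lf9, lf73⟩, lf41⟩, ⟨⟨lf25, lf89⟩, lf57⟩⟩⟩, ⟨⟨⟨⟨lf5, lf69⟩, ⟨lf37, lf101⟩⟩, ⟨⟨lf21, lf85⟩, lf53⟩⟩, ⟨⟨⟨lf13, lf77⟩, lf45⟩, ⟨⟨lf29, lf93⟩, lf61⟩⟩⟩⟩, ⟨⟨⟨⟨⟨lf3, lf67⟩, ⟨lf35, lf99⟩⟩, ⟨⟨lf19, lf83⟩, lf51⟩⟩, ⟨⟨⟨lf11, lf75⟩, lf43⟩, ⟨⟨lf27, lf91⟩, lf59⟩⟩⟩, ⟨⟨⟨⟨lf7, lf71⟩, ⟨lf39, lf103⟩⟩, ⟨⟨lf23, lf87⟩,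 lf55⟩⟩, ⟨⟨⟨lf15, lf79⟩, lf47⟩, ⟨⟨lf31, lf95⟩, lf63⟩⟩⟩⟩⟩⟩

theorem subs_ok : AllS (fun XZ : List Letter × List Letter => (∀ p ∈ XZ.1, p ∈ cert.LS) ∧ (∀ p ∈ XZ.2, p ∈ cert.LS) ∧
    ev (fun k => el (jm [0, 1, 2, 3, 4, 5, 6] k)) XZ.1 * ev (fun k => el (jm [0, 1, 2, 3, 4, 5, 6] k)) XZ.2 ∈ KK el [0, 2, 3, 4, 5, 6]) cert.subs :=
  ⟨sub_ok cert _ (KK el [0, 2, 3, 4, 5, 6]) hsel [] [0] _ _ rfl rfl (by decide) (sub_memJ el [0, 1, 2, 3, 4, 5, 6] [0, 2, 3, 4, 5, 6] 0 (by decide)), sub_ok cert _ (KK el [0, 2, 3, 4, 5, 6]) hsel [] [2] _ _ rfl rfl (by decide) (sub_memJ el [0, 1, 2, 3, 4, 5, 6] [0, 2, 3, 4, 5, 6] 2 (by decide)), sub_ok cert _ (KK el [0, 2, 3, 4, 5, 6]) hsel [] [3] _ _ rfl rfl (by decide) (sub_memJ el [0, 1, 2, 3, 4, 5, 6] [0, 2, 3, 4, 5, 6] 3 (by decide)), sub_ok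 cert _ (KK el [0, 2, 3, 4, 5, 6]) hsel [] [4] _ _ rfl rfl (by decide) (sub_memJ el [0, 1, 2, 3, 4, 5, 6] [0, 2, 3, 4, 5, 6] 4 (by decide)), sub_ok cert _ (KK el [0, 2, 3, 4, 5, 6]) hsel [] [5] _ _ rfl rfl (by decide) (sub_memJ el [0, 1, 2, 3, 4, 5, 6] [0, 2, 3, 4, 5, 6] 5 (by decide)), sub_ok cert _ (KK el [0, 2, 3, 4, 5, 6]) hsel [] [6] _ _ rfl rfl (by decide) (sub_memJ el [0, 1, 2, 3, 4, 5, 6] [0, 2, 3, 4, 5, 6] 6 (by decide)), trivial⟩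

theorem hyp : Hyp cert (KK el [0, 2, 3, 4, 5, 6]) (fun k => el (jm [0, 1, 2, 3, 4, 5, 6] k)) := ⟨tree_ok, forall_of_allS subs_ok⟩

theorem hrow : ∀ a < cert.M, row cert a = true := by
  intro a ha
  have ha' : a < 50448 := ha
  rcases Nat.lt_or_ge a 1000 with h0 | h0
  · exact loop_spec row_ok0 a (by omega) (by omega)
  rcases Nat.lt_or_ge a 2000 with h1 | h1
  · exact loop_spec row_ok1 a (by omega) (by omega)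
  rcases Nat.lt_or_ge a 3000 with h2 | h2
  · exact loop_spec row_ok2 a (by omega) (by omega)
  rcases Nat.lt_or_ge a 4000 with h3 | h3
  · exact loop_spec row_ok3 a (by omega) (by omega)
  rcases Nat.lt_or_ge a 5000 with h4 | h4
  · exact loop_spec row_ok4 a (by omega) (by omega)
  rcases Nat.lt_or_ge a 6000 with h5 | h5
  · exact loop_spec row_ok5 a (by omega) (by omega)
  rcases Nat.lt_or_ge a 7000 with h6 | h6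
  · exact loop_spec row_ok6 a (by omega) (by omega)
  rcases Nat.lt_or_ge a 8000 with h7 | h7
  · exact loop_spec row_ok7 a (by omega) (by omega)
  rcases Nat.lt_or_ge a 9000 with h8 | h8
  · exact loop_spec row_ok8 a (by omega) (by omega)
  rcases Nat.lt_or_ge a 10000 with h9 | h9
  · exact loop_spec row_ok9 a (by omega) (by omega)
  rcases Nat.lt_or_ge a 11000 with h10 | h10
  · exact loop_spec row_ok10 a (by omega) (by omega)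
  rcases Nat.lt_or_ge a 12000 with h11 | h11
  · exact loop_spec row_ok11 a (by omega) (by omega)
  rcases Nat.lt_or_ge a 13000 with h12 | h12
  · exact loop_spec row_ok12 a (by omega) (by omega)
  rcases Nat.lt_or_ge a 14000 with h13 | h13
  · exact loop_spec row_ok13 a (by omega) (by omega)
  rcases Nat.lt_or_ge a 15000 with h14 | h14
  · exact loop_spec row_ok14 a (by omega) (by omega)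
  rcases Nat.lt_or_ge a 16000 with h15 | h15
  · exact loop_spec row_ok15 a (by omega) (by omega)
  rcases Nat.lt_or_ge a 17000 with h16 | h16
  · exact loop_spec row_ok16 a (by omega) (by omega)
  rcases Nat.lt_or_ge a 18000 with h17 | h17
  · exact loop_spec row_ok17 a (by omega) (by omega)
  rcases Nat.lt_or_ge a 19000 with h18 | h18
  · exact loop_spec row_ok18 a (by omega) (by omega)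
  rcases Nat.lt_or_ge a 20000 with h19 | h19
  · exact loop_spec row_ok19 a (by omega) (by omega)
  rcases Nat.lt_or_ge a 21000 with h20 | h20
  · exact loop_spec row_ok20 a (by omega) (by omega)
  rcases Nat.lt_or_ge a 22000 with h21 | h21
  · exact loop_spec row_ok21 a (by omega) (by omega)
  rcases Nat.lt_or_ge a 23000 with h22 | h22
  · exact loop_spec row_ok22 a (by omega) (by omega)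
  rcases Nat.lt_or_ge a 24000 with h23 | h23
  · exact loop_spec row_ok23 a (by omega) (by omega)
  rcases Nat.lt_or_ge a 25000 with h24 | h24
  · exact loop_spec row_ok24 a (by omega) (by omega)
  rcases Nat.lt_or_ge a 26000 with h25 | h25
  · exact loop_spec row_ok25 a (by omega) (by omega)
  rcases Nat.lt_or_ge a 27000 with h26 | h26
  · exact loop_spec row_ok26 a (by omega) (by omega)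
  rcases Nat.lt_or_ge a 28000 with h27 | h27
  · exact loop_spec row_ok27 a (by omega) (by omega)
  rcases Nat.lt_or_ge a 29000 with h28 | h28
  · exact loop_spec row_ok28 a (by omega) (by omega)
  rcases Nat.lt_or_ge a 30000 with h29 | h29
  · exact loop_spec row_ok29 a (by omega) (by omega)
  rcases Nat.lt_or_ge a 31000 with h30 | h30
  · exact loop_spec row_ok30 a (by omega) (by omega)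
  rcases Nat.lt_or_ge a 32000 with h31 | h31
  · exact loop_spec row_ok31 a (by omega) (by omega)
  rcases Nat.lt_or_ge a 33000 with h32 | h32
  · exact loop_spec row_ok32 a (by omega) (by omega)
  rcases Nat.lt_or_ge a 34000 with h33 | h33
  · exact loop_spec row_ok33 a (by omega) (by omega)
  rcases Nat.lt_or_ge a 35000 with h34 | h34
  · exact loop_spec row_ok34 a (by omega) (by omega)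
  rcases Nat.lt_or_ge a 36000 with h35 | h35
  · exact loop_spec row_ok35 a (by omega) (by omega)
  rcases Nat.lt_or_ge a 37000 with h36 | h36
  · exact loop_spec row_ok36 a (by omega) (by omega)
  rcases Nat.lt_or_ge a 38000 with h37 | h37
  · exact loop_spec row_ok37 a (by omega) (by omega)
  rcases Nat.lt_or_ge a 39000 with h38 | h38
  · exact loop_spec row_ok38 a (by omega) (by omega)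
  rcases Nat.lt_or_ge a 40000 with h39 | h39
  · exact loop_spec row_ok39 a (by omega) (by omega)
  rcases Nat.lt_or_ge a 41000 with h40 | h40
  · exact loop_spec row_ok40 a (by omega) (by omega)
  rcases Nat.lt_or_ge a 42000 with h41 | h41
  · exact loop_spec row_ok41 a (by omega) (by omega)
  rcases Nat.lt_or_ge a 43000 with h42 | h42
  · exact loop_spec row_ok42 a (by omega) (by omega)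
  rcases Nat.lt_or_ge a 44000 with h43 | h43
  · exact loop_spec row_ok43 a (by omega) (by omega)
  rcases Nat.lt_or_ge a 45000 with h44 | h44
  · exact loop_spec row_ok44 a (by omega) (by omega)
  rcases Nat.lt_or_ge a 46000 with h45 | h45
  · exact loop_spec row_ok45 a (by omega) (by omega)
  rcases Nat.lt_or_ge a 47000 with h46 | h46
  · exact loop_spec row_ok46 a (by omega) (by omega)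
  rcases Nat.lt_or_ge a 48000 with h47 | h47
  · exact loop_spec row_ok47 a (by omega) (by omega)
  rcases Nat.lt_or_ge a 49000 with h48 | h48
  · exact loop_spec row_ok48 a (by omega) (by omega)
  rcases Nat.lt_or_ge a 50000 with h49 | h49
  · exact loop_spec row_ok49 a (by omega) (by omega)
  exact loop_spec row_ok50 a (by omega) (by omega)

theorem ub (hf : Finite (KK el [0, 2, 3, 4, 5, 6])) : Finite (KK el [0, 1, 2, 3, 4, 5, 6]) ∧ Nat.card (KK el [0, 1, 2, 3, 4, 5, 6]) ≤ 49980 * Nat.card (KK el [0, 2, 3, 4, 5, 6]) :=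
  ub_stepJ el [0, 1, 2, 3, 4, 5, 6] [0, 2, 3, 4, 5, 6] el_sq hyp al0 hrow rfl cnt hf

end Cfsg.Agent.Lib.Helper19.OrdHe.U0
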